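import Cfsg.Agent.Tw.Fix
import Cfsg.Agent.Chev.ReflE6
import Cfsg.Agent.Chev.ReflE7
import Cfsg.Agent.Chev.ReflE8
import Cfsg.Agent.Chev.ReflF4
import Cfsg.Agent.Chev.ReflG2
import Cfsg.Agent.Chev.ReflD4

/-! Upper bounds for the orders of Weyl groups and of (twisted) Chevalley groups. -/

set_option autoImplicit false

namespace Cfsg.Agent.Forms

open Cfsg.Lie Cfsg.Lie.ChevalleyDatum Cfsg.Agent.Chev Cfsg.Agent.Tw Equiv

variable {D : ChevalleyDatum} (C : Cert D)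

theorem card_WJ_le {J J' : Set (Nd D)} (r : Rt D) (hr : C.InJ J r)
    (hd : ∀ j ∈ J, 0 ≤ C.A (C.sp j) r) (hJ' : ∀ j ∈ J, C.A (C.sp j) r = 0 → j ∈ J') :
    Nat.card (C.WJ J) ≤ {s | C.InJ J s ∧ C.len s = C.len r}.ncard * Nat.card (C.WJ J') := by
  rw [← (MulAction.stabilizer (C.WJ J) r).card_mul_index, MulAction.index_stabilizer, mul_comm]
  refine Nat.mul_le_mul (Set.ncard_le_ncard ?_) ?_
  · rintro _ ⟨w, rfl⟩
    exact ⟨(Cert.inJ_map w.2 r).2 hr, Cert.Aut.len_map (C.WJ_le_Aut J w.2) r⟩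
  · refine Nat.card_le_card_of_injective (fun w => ⟨w.1.1, ?_⟩)
      fun a b h => Subtype.ext (Subtype.ext (Subtype.mk.inj h))
    have h1 : w.1.1 r = r := w.2
    refine C.WJ_mono ?_ (Cert.dom_unique (f := C.prL r) (fun j hj => ?_) w.1.2 fun j hj => ?_)
    · rintro j ⟨hj, h2⟩
      rw [C.prL_rc] at h2
      exact hJ' j hj (C.A_eq_zero_comm.1 h2)
    · rw [C.prL_rc]; exact C.A_nonneg_comm.1 (hd j hj)
    · have := Cert.Aut.A_map (C.WJ_le_Aut J w.1.2) r (C.sp j)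
      rw [h1] at this
      rw [C.prL_rc, this]; exact C.A_nonneg_comm.1 (hd j hj)

/-- The root lies in the span of the nodes of the mask. -/
def inM (l : ℕ) (rc : ℕ → ℕ → ℤ) (m s : ℕ) : Bool :=
  (List.range l).all fun i => m.testBit i || rc s i == 0

/-- Check of a chain of parabolic subgroups. -/
def chainOK (n l : ℕ) (rc ca : ℕ → ℕ → ℤ) : ℕ → List (ℕ × ℕ) → Bool
  | m, [] => m == 0
  | m, x :: L => decide (x.1 < n) && inM l rc m x.1 && ((List.range l).all fun j =>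
      !m.testBit j || (decide (0 ≤ ca j x.1) && (ca j x.1 != 0 || x.2.testBit j))) &&
      chainOK n l rc ca x.2 L

/-- The bound given by a chain of parabolic subgroups. -/
def chainB (n l : ℕ) (rc : ℕ → ℕ → ℤ) (len : ℕ → ℕ) : ℕ → List (ℕ × ℕ) → ℕ
  | _, [] => 1
  | m, x :: L => ((List.range n).filter fun s => inM l rc m s && len s == len x.1).length *
      chainB n l rc len x.2 L

theorem card_WJ_chain {rc ca : ℕ → ℕ → ℤ} {len : ℕ → ℕ}
    (h1 : ∀ (r : Rt D) (i : Nd D), C.rc r i = rc r i) (h2 : ∀ r : Rt D, C.len r = len r)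
    (h3 : ∀ (i : Nd D) (r : Rt D), D.cartan i r = ca i r) (L : List (ℕ × ℕ)) (m : ℕ)
    (h : chainOK D.nroots D.rank rc ca m L = true) :
    Nat.card (C.WJ {i | m.testBit i}) ≤ chainB D.nroots D.rank rc len m L := by
  have hin : ∀ (m : ℕ) (s : Rt D), C.InJ {i | m.testBit i} s ↔ inM D.rank rc m s = true := by
    intro m s
    simp only [Cert.InJ, inM, List.all_eq_true, List.mem_range, Set.mem_ofPred_eq, Bool.or_eq_true,
      beq_iff_eq, h1]
    exact ⟨fun h i hi => (em _).imp id (h ⟨i, hi⟩), fun h i hi => (h i i.2).resolve_left hi⟩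
  induction L generalizing m with
  | nil =>
    obtain rfl : m = 0 := by simpa [chainOK] using h
    simp [chainB, C.WJ_empty]
  | cons x L ih =>
    simp only [chainOK, Bool.and_eq_true, decide_eq_true_eq, List.all_eq_true, List.mem_range,
      Bool.or_eq_true, Bool.not_eq_true', bne_iff_ne] at h
    obtain ⟨⟨⟨a1, a2⟩, a3⟩, a4⟩ := h
    refine (card_WJ_le C (J' := {i | x.2.testBit i}) ⟨x.1, a1⟩ ((hin m _).2 a2) (fun j hj => ?_)
      fun j hj h0 => ?_).trans (Nat.mul_le_mul ?_ (ih _ a4))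
    · rw [C.A_sp, h3]
      exact ((a3 j j.2).resolve_left (by simpa using hj)).1
    · rw [C.A_sp, h3] at h0
      exact ((a3 j j.2).resolve_left (by simpa using hj)).2.resolve_left (by simpa using h0)
    · rw [← Set.ncard_image_of_injective _ Fin.val_injective]
      refine le_trans (Set.ncard_le_ncard (t := ↑((List.range D.nroots).filter fun s =>
        inM D.rank rc m s && len s == len x.1).toFinset) ?_) ?_
      · rintro _ ⟨s, ⟨b1, b2⟩, rfl⟩
        rw [h2, h2] at b2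
        simpa [(hin m s).1 b1] using b2
      · rw [Set.ncard_coe_finset]; exact List.toFinset_card_le _

theorem card_W_chain {rc ca : ℕ → ℕ → ℤ} {len : ℕ → ℕ}
    (h1 : ∀ (r : Rt D) (i : Nd D), C.rc r i = rc r i) (h2 : ∀ r : Rt D, C.len r = len r)
    (h3 : ∀ (i : Nd D) (r : Rt D), D.cartan i r = ca i r) (L : List (ℕ × ℕ)) {b : ℕ}
    (h : chainOK D.nroots D.rank rc ca (2 ^ D.rank - 1) L = true)
    (hb : chainB D.nroots D.rank rc len (2 ^ D.rank - 1) L = b) : Nat.card C.W ≤ b := by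
  have := card_WJ_chain C h1 h2 h3 L _ h
  have e : {i : Nd D | (2 ^ D.rank - 1).testBit i = true} = Set.univ := by
    ext i; simp [Nat.testBit_two_pow_sub_one]
  rwa [hb, e] at this

theorem card_W_G2 : Nat.card certG2.W ≤ 12 :=
  card_W_chain _ certG2_rc certG2_len cartanG2 [(11, 1), (7, 0)] (by decide +kernel)
    (by decide +kernel)

theorem card_W_F4 : Nat.card certF4.W ≤ 1152 :=
  card_W_chain _ certF4_rc certF4_len cartanF4 [(47, 7), (41, 6), (30, 4), (25, 0)]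
    (by decide +kernel) (by decide +kernel)

theorem card_W_E6 : Nat.card certE6.W ≤ 51840 :=
  card_W_chain _ certE6_rc certE6_len cartanE6 [(71, 61), (60, 28), (44, 8), (39, 0)]
    (by decide +kernel) (by decide +kernel)

theorem card_W_E7 : Nat.card certE7.W ≤ 75479040 :=
  card_W_chain _ certE7_rc certE7_len cartanE7
    [(125, 126), (92, 94), (87, 86), (78, 84), (73, 80), (66, 64), (63, 0)]
    (by decide +kernel) (by decide +kernel)

theorem card_W_E8 : Nat.card certE8.W ≤ 18114969600 :=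
  card_W_chain _ certE8_rc certE8_len cartanE8
    [(239, 127), (226, 126), (159, 94), (152, 86), (141, 84), (135, 80), (126, 64), (121, 0)]
    (by decide +kernel) (by decide +kernel)

variable {C} {F : Type*} [Field F] {G : Type*} [Group G] {S : Sys C F G} {T : Stb S}
  {K : Subgroup G}

theorem good_card_le [Finite G] (h : T.Good K) :
    Nat.card K ≤ Nat.card {w // w ∈ C.W ∧ T.cj w = w} * Nat.card (K ⊓ S.H : Subgroup G) *
      Nat.card (K ⊓ S.Up : Subgroup G) ^ 2 := by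
  choose m hm hm' using fun w : {w // w ∈ C.W ∧ T.cj w = w} => h.ex_over w w.2.1 w.2.2
  rw [sq, ← Nat.card_prod, ← Nat.card_prod, ← Nat.card_prod]
  refine Nat.card_le_card_of_surjective (fun x => ⟨x.2.1 * (x.1.2 * m x.1.1) * x.2.2,
    mul_mem (mul_mem x.2.1.2.1 (mul_mem x.1.2.2.1 (hm _))) x.2.2.2.1⟩) fun g => ?_
  obtain ⟨w, hw, hc⟩ := S.exists_cell g
  obtain ⟨h1, u, hu, hu', n, hn, hn', v, hv, hv', e⟩ := h.nf g.2 hc
  refine ⟨((⟨w, hw, h1⟩, ⟨n * (m ⟨w, hw, h1⟩)⁻¹, K.mul_mem hn (K.inv_mem (hm _)),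
    hn'.mul_inv_mem_H (hm' _)⟩), ⟨u, hu, hu'⟩, ⟨v, hv, S.Uw_le_Up _ hv'⟩), Subtype.ext ?_⟩
  simp [e]

theorem fix_H_card_le [Finite F] (hφ : Function.Injective S.φ) (hK : ∀ g ∈ K, T.σ g = g) {ι : Type*}
    [Fintype ι] (R : ι → Nd D) (hR : ∀ j, ∃ i, j ∈ T.orb (R i)) (A : ι → Set Fˣ)
    (hA : ∀ i, ∀ a ∈ K ⊓ S.H, S.chi a (C.sp (R i)) ∈ A i) :
    Nat.card (K ⊓ S.H : Subgroup G) ≤ ∏ i, (A i).ncard := by
  simp only [← Nat.card_coe_set_eq]
  rw [← Nat.card_pi]
  refine Nat.card_le_card_of_injective (fun a i => ⟨_, hA i a a.2⟩) fun a b e => ?_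
  refine Subtype.ext (S.eq_of_chi hφ a.2.2 b.2.2 fun j => ?_)
  obtain ⟨i, hi⟩ := hR j
  obtain ⟨k, rfl⟩ := Perm.SameCycle.exists_nat_pow_eq hi
  clear hi
  induction k with
  | zero => exact congrArg Subtype.val (congrFun e i)
  | succ k ih =>
    rw [pow_succ', Perm.mul_apply, ← T.sp, ← hK _ a.2.1, ← hK _ b.2.1, Stb.chi_σ a.2.2,
      Stb.chi_σ b.2.2, ih]

theorem card_fixW_le : Nat.card {w // w ∈ C.W ∧ T.cj w = w} ≤ Nat.card C.W :=
  Nat.card_le_card_of_injective (fun w => ⟨w.1, w.2.1⟩)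
    fun _ _ h => Subtype.ext (Subtype.mk.inj h)

theorem good_cube [Finite G] (h : T.Good K) {c : ℕ}
    (h1 : Nat.card {w // w ∈ C.W ∧ T.cj w = w} * Nat.card (K ⊓ S.H : Subgroup G) ≤ c)
    (h2 : c ^ 3 < Nat.card (K ⊓ S.Up : Subgroup G) ^ 2) :
    Nat.card K ^ 3 < Nat.card (K ⊓ S.Up : Subgroup G) ^ 8 := by
  refine (Nat.pow_le_pow_left ((good_card_le h).trans (Nat.mul_le_mul_right _ h1)) 3).trans_lt ?_
  rw [mul_pow, ← pow_mul, show 8 = 2 + 2 * 3 from rfl, pow_add]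
  exact Nat.mul_lt_mul_of_pos_right h2 (pow_pos Nat.card_pos _)

end Cfsg.Agent.Forms
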